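import Cfsg.Agent.Lib.Helper21.O10.Defs

set_option autoImplicit false

namespace Cfsg.Agent.Lib.Helper70.O10

open Cfsg Cfsg.Geo Matrix Cfsg.Agent.Lib.Helper13.Asch Cfsg.Agent.Lib.Helper90.Sp
  Cfsg.Agent.Lib.Helper57.OE Cfsg.Agent.Lib.Helper21.O10
open scoped Kronecker MatrixGroups commutatorElement

variable {ι : Type} [Fintype ι] [DecidableEq ι] {F : Type*} [Field F] {Q : (ι → F) → F}

theorem nrm_commutator {H N : Subgroup (GL ι F)} (hN : Nrm H N) : Nrm H ⁅N, N⁆ := by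
  intro h hh x hx
  have h1 : (⁅N, N⁆ : Subgroup (GL ι F)).map (MulAut.conj h).toMonoidHom ≤ ⁅N, N⁆ := by
    rw [Subgroup.map_commutator]
    refine Subgroup.commutator_mono ?_ ?_ <;>
    · rintro _ ⟨y, hy, rfl⟩
      exact hN h hh y hy
  exact h1 ⟨x, hx, rfl⟩

end Cfsg.Agent.Lib.Helper70.O10
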