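import Cfsg.Agent.Lib.Helper21.O10.Defs

set_option autoImplicit false

namespace Cfsg.Agent.Lib.Helper70.O10

open Cfsg Cfsg.Geo Matrix Cfsg.Agent.Lib.Helper13.Asch Cfsg.Agent.Lib.Helper90.Sp
  Cfsg.Agent.Lib.Helper57.OE Cfsg.Agent.Lib.Helper21.O10
open scoped Kronecker MatrixGroups commutatorElement

variable {ι : Type} [Fintype ι] [DecidableEq ι] {F : Type*} [Field F] {Q : (ι → F) → F}

theorem mem_cenv_of_central {N : Subgroup (GL ι F)} (x : GL ι F) (hx : x ∈ N)
    (hc : ∀ y ∈ N, x * y = y * x) : (x : Matrix ι ι F) ∈ cenv N := by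
  refine ⟨Algebra.subset_adjoin ⟨x, hx, rfl⟩, ?_⟩
  have h1 : env N ≤ Subalgebra.centralizer F {(x : Matrix ι ι F)} := by
    refine Algebra.adjoin_le ?_
    rintro _ ⟨y, hy, rfl⟩
    refine (Subalgebra.mem_centralizer_iff F).2 ?_
    rintro _ rfl
    have := congrArg Units.val (hc y hy)
    simpa using this
  refine (Subalgebra.mem_centralizer_iff F).2 fun z hz => ?_
  exact ((Subalgebra.mem_centralizer_iff F).1 (h1 hz) _ rfl).symm

end Cfsg.Agent.Lib.Helper70.O10
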