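import Cfsg.Agent.Lib.Helper21.O10.Defs

set_option autoImplicit false

namespace Cfsg.Agent.Lib.Helper70.O10

open Cfsg Cfsg.Geo Matrix Cfsg.Agent.Lib.Helper13.Asch Cfsg.Agent.Lib.Helper90.Sp
  Cfsg.Agent.Lib.Helper57.OE Cfsg.Agent.Lib.Helper21.O10
open scoped Kronecker MatrixGroups commutatorElement

variable {ι : Type} [Fintype ι] [DecidableEq ι] {F : Type*} [Field F] {Q : (ι → F) → F}

theorem finrank_le_one_of_scalar [Nonempty ι] (Z : Subalgebra F (Matrix ι ι F))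
    (h : ∀ z ∈ Z, ∃ c : F, z = c • 1) : Module.finrank F Z ≤ 1 := by
  refine finrank_le_one (⟨1, Z.one_mem⟩ : Z) fun w => ?_
  obtain ⟨c, hc⟩ := h w.1 w.2
  exact ⟨c, Subtype.ext hc.symm⟩

end Cfsg.Agent.Lib.Helper70.O10
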