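import Cfsg.Agent.Lib.Helper21.O10.Defs

set_option autoImplicit false

namespace Cfsg.Agent.Lib.Helper70.O10

open Cfsg Cfsg.Geo Matrix Cfsg.Agent.Lib.Helper13.Asch Cfsg.Agent.Lib.Helper90.Sp
  Cfsg.Agent.Lib.Helper57.OE Cfsg.Agent.Lib.Helper21.O10
open scoped Kronecker MatrixGroups commutatorElement

variable {ι : Type} [Fintype ι] [DecidableEq ι] {F : Type*} [Field F] {Q : (ι → F) → F}

/-- the orbit map `k ↦ k *ᵥ u` -/
def orbMap (K : Subalgebra F (Matrix ι ι F)) (u : ι → F) : K →ₗ[F] (ι → F) where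
  toFun k := k.1 *ᵥ u
  map_add' a b := by simp [Matrix.add_mulVec]
  map_smul' c a := by simp [Matrix.smul_mulVec]

theorem orbMap_injective {r : ℕ} (K : Subalgebra F (Matrix ι ι F)) (hK : IsFieldSubalgebra r K)
    (u : ι → F) (hu : u ≠ 0) : Function.Injective (orbMap K u) := by
  rw [← LinearMap.ker_eq_bot, LinearMap.ker_eq_bot']
  intro k hk
  by_contra hk0
  have hk0' : k.1 ≠ 0 := fun h => hk0 (Subtype.ext h)
  obtain ⟨y, hy, hky⟩ := hK.inv k.1 k.2 hk0'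
  apply hu
  have h1 : k.1 *ᵥ u = 0 := hk
  have h2 : y * k.1 = 1 := by rw [hK.comm y hy k.1 k.2, hky]
  calc u = (y * k.1) *ᵥ u := by rw [h2, Matrix.one_mulVec]
    _ = 0 := by rw [← Matrix.mulVec_mulVec, h1, Matrix.mulVec_zero]

theorem eq_orbit_of_invariant {r : ℕ} (K : Subalgebra F (Matrix ι ι F))
    (hK : IsFieldSubalgebra r K) (W : Submodule F (ι → F)) (hW : ∀ k ∈ K, ∀ x ∈ W, k *ᵥ x ∈ W)
    (hdim : Module.finrank F W = r) (u : ι → F) (huW : u ∈ W) (hu : u ≠ 0) :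
    ∀ v ∈ W, ∃ k ∈ K, v = k *ᵥ u := by
  have hle : LinearMap.range (orbMap K u) ≤ W := by
    rintro _ ⟨k, rfl⟩
    exact hW k.1 k.2 u huW
  have hfr : Module.finrank F (LinearMap.range (orbMap K u)) = Module.finrank F W := by
    rw [LinearMap.finrank_range_of_inj (orbMap_injective K hK u hu), hK.finrank_eq, hdim]
  have heq := Submodule.eq_of_le_of_finrank_eq hle hfr
  intro v hv
  rw [← heq] at hv
  obtain ⟨k, rfl⟩ := hv
  exact ⟨k.1, k.2, rfl⟩

end Cfsg.Agent.Lib.Helper70.O10
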