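import Cfsg.Agent.Lib.Helper21.O10.Defs
import Cfsg.Agent.Lib.Helper96.Asch.L0e

set_option autoImplicit false

namespace Cfsg.Agent.Lib.Helper70.O10

open Cfsg Cfsg.Geo Matrix Cfsg.Agent.Lib.Helper13.Asch Cfsg.Agent.Lib.Helper90.Sp
  Cfsg.Agent.Lib.Helper57.OE Cfsg.Agent.Lib.Helper21.O10
open scoped Kronecker MatrixGroups commutatorElement

variable {ι : Type} [Fintype ι] [DecidableEq ι] {F : Type*} [Field F] {Q : (ι → F) → F}

theorem cenv_scalar_of_class_two {N : Subgroup (GL ι F)} (hcl : ⁅N, N⁆ ≤ scalars ι F)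
    (hcen : ∀ x ∈ N, (∀ y ∈ N, x * y = y * x) → x ∈ scalars ι F) :
    ∀ z ∈ cenv N, ∃ c : F, z = c • 1 := by
  classical
  intro z hz
  obtain ⟨hz1, hz2⟩ := hz
  obtain ⟨b, hbs, hspan, hli⟩ := exists_linearIndependent F (matrixSet N)
  have hzspan : z ∈ Submodule.span F b := by
    rw [hspan, ← Cfsg.Agent.Lib.Helper96.Asch.env_eq_span]
    exact hz1
  obtain ⟨l, hl⟩ := (Finsupp.mem_span_iff_linearCombination F b z).1 hzspan
  rw [Finsupp.linearCombination_apply, Finsupp.sum] at hl
  have key : ∀ g ∈ l.support, ∀ h ∈ N,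
      (h : Matrix ι ι F) * (g : Matrix ι ι F) * ((h⁻¹ : GL ι F) : Matrix ι ι F) = g := by
    intro g hg h hh
    have hex : ∀ i : b, ∃ c : F,
        (h : Matrix ι ι F) * (i : Matrix ι ι F) * ((h⁻¹ : GL ι F) : Matrix ι ι F)
          = c • (i : Matrix ι ι F) := by
      intro i
      obtain ⟨x, hx, hxi⟩ := hbs i.2
      obtain ⟨c, hc⟩ := (mem_scalars_iff _).1 (hcl (Subgroup.commutator_mem_commutator hh hx))
      refine ⟨c, ?_⟩
      rw [← hxi]
      have h1 : (h * x * h⁻¹ : GL ι F) = ⁅h, x⁆ * x := by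
        rw [commutatorElement_def]
        group
      have h2 := congrArg Units.val h1
      simp only [Units.val_mul] at h2
      rw [h2, hc, smul_mul_assoc, one_mul]
    choose c hc using hex
    have hzh : (h : Matrix ι ι F) * z * ((h⁻¹ : GL ι F) : Matrix ι ι F) = z := by
      have h1 : (h : Matrix ι ι F) * z = z * h :=
        (Subalgebra.mem_centralizer_iff F).1 hz2 h (Algebra.subset_adjoin ⟨h, hh, rfl⟩)
      rw [h1, mul_assoc, Units.mul_inv, mul_one]
    have e1 : ∑ i ∈ l.support, (l i * c i) • (i : Matrix ι ι F)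
        = (h : Matrix ι ι F) * z * ((h⁻¹ : GL ι F) : Matrix ι ι F) := by
      rw [← hl, Finset.mul_sum, Finset.sum_mul]
      refine Finset.sum_congr rfl fun i _ => ?_
      rw [Matrix.mul_smul, Matrix.smul_mul, hc i, smul_smul]
    have hsum : ∑ i ∈ l.support, (l i * c i - l i) • (i : Matrix ι ι F) = 0 := by
      simp only [sub_smul, Finset.sum_sub_distrib]
      rw [e1, hzh, hl, sub_self]
    have h3 := linearIndependent_iff'.1 hli l.support (fun i => l i * c i - l i) hsum g hg
    have h4 : l g ≠ 0 := Finsupp.mem_support_iff.1 hg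
    have h5 : c g = 1 := by
      have : l g * (c g - 1) = 0 := by
        rw [mul_sub, mul_one]
        exact h3
      rcases mul_eq_zero.1 this with h | h
      · exact absurd h h4
      · exact sub_eq_zero.1 h
    rw [hc g, h5, one_smul]
  have hsc : ∀ g : b, g ∈ l.support → ∃ d : F, (g : Matrix ι ι F) = d • 1 := by
    intro g hg
    obtain ⟨x, hx, hxg⟩ := hbs g.2
    have hxc : ∀ y ∈ N, x * y = y * x := by
      intro y hy
      have h1 := key g hg y hy
      rw [← hxg] at h1
      have h2 : y * x * y⁻¹ = x := Units.ext (by simpa using h1)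
      calc x * y = (y * x * y⁻¹) * y := by rw [h2]
        _ = y * x := by group
    obtain ⟨d, hd⟩ := (mem_scalars_iff _).1 (hcen x hx hxc)
    exact ⟨d, by rw [← hxg]; exact hd⟩
  have hsc' : ∀ g : b, ∃ d : F, g ∈ l.support → (g : Matrix ι ι F) = d • 1 := by
    intro g
    by_cases hg : g ∈ l.support
    · obtain ⟨d, hd⟩ := hsc g hg
      exact ⟨d, fun _ => hd⟩
    · exact ⟨0, fun h => absurd h hg⟩
  choose d hd using hsc'
  refine ⟨∑ i ∈ l.support, l i * d i, ?_⟩
  rw [← hl, Finset.sum_smul]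
  refine Finset.sum_congr rfl fun i hi => ?_
  rw [hd i hi, smul_smul]

end Cfsg.Agent.Lib.Helper70.O10
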